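import Cfsg.Agent.XP.Defs
import Cfsg.Agent.H98.Descent

set_option autoImplicit false
set_option linter.unusedSectionVars false

namespace Cfsg.Agent.XP

open Cfsg Cfsg.Geo Cfsg.Agent.H98 Cfsg.Agent.H99 Matrix
open Cfsg.Agent.N9 (pm dg On pm_apply dg_apply coe_dg pm_dg conj_pm mul_pm_apply pm_mul_apply dg_const)

variable {F : Type*} [Field F] [Fintype F] {ι : Type} [Fintype ι] [DecidableEq ι] {p : ℕ} {ζ : Fˣ}
  {w g : GL I F} {G : Subgroup (GL I F)} {e : ι → I} {v : GL ι F} {Γ K Q P : Subgroup (GL ι F)}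

namespace Sub

theorem det_dg (t : ι → Fˣ) : ((dg t : GL ι F) : Matrix ι ι F).det = ((∏ i, t i : Fˣ) : F) := by
  rw [coe_dg, det_diagonal, Units.coe_prod]

theorem d11 (hD : D11 Γ) {t : ι → Fˣ} (ht : dg t ∈ Γ) (i k : ι) : t i ^ 11 = t k ^ 11 := by
  have := hD t ht
  rw [← map_pow, dg_mem_scalars] at this
  exact this i k

theorem card_sub (h : Fd F p ζ) (F₀ : Subfield F) :
    Nat.card F₀ = p ∨ (Nat.card F₀ = p ^ 5 ∧ Fintype.card F = p ^ 5) := by
  have h1 := card_eq_pow_finrank_subfield F₀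
  have h2 : 0 < Module.finrank F₀ F := Module.finrank_pos
  generalize Module.finrank F₀ F = n at h1 h2
  rw [Nat.card_eq_fintype_card] at h1
  have h3 : ∀ s, Fintype.card F = p ^ s → ∃ j, Nat.card F₀ = p ^ j ∧ j ∣ s := fun s hs => by
    obtain ⟨j, -, hj⟩ := (Nat.dvd_prime_pow h.prime).1
      (show Nat.card F₀ ∣ p ^ s by rw [← hs, h1]; exact dvd_pow_self _ h2.ne')
    refine ⟨j, hj, n, Nat.pow_right_injective h.prime.two_le ?_⟩
    change p ^ s = p ^ (j * n)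
    rw [pow_mul, ← hj, ← h1, hs]
  rcases h.card with c | c
  · obtain ⟨j, h4, h5⟩ := h3 1 (by rw [c, pow_one])
    rw [Nat.dvd_one.1 h5, pow_one] at h4
    exact Or.inl h4
  · obtain ⟨j, h4, h5⟩ := h3 5 c
    rcases (Nat.dvd_prime (by norm_num)).1 h5 with rfl | rfl
    · exact Or.inl (by rw [h4, pow_one])
    · exact Or.inr ⟨h4, c⟩

theorem ex_n : ∀ P m : I, P ≠ 0 → P ≠ 1 → (∀ k, ∃ i, em i = m + P * em k) →
    ∃ n : Fin 5 → Fin 5, Function.Bijective n ∧ ∀ i k, em i = m + P * em k → n i = n k + 1 := by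
  decide +kernel

theorem col_ne (C : GL ι F) (k : ι) : ∃ i, (C : Matrix ι ι F) i k ≠ 0 := by
  by_contra hc
  exact C.det_ne_zero (det_eq_zero_of_column_eq_zero k fun i => by_contra fun c => hc ⟨i, c⟩)

end Sub

theorem Fd.not_sl (h : Fd F p ζ) {Δ : Subgroup (GL (Fin 5) F)} (hD : D11 Δ) : ¬ specialLinear (Fin 5) F ≤ Δ := by
  intro hle
  have h1 : (dg ![-1, -1, 1, 1, 1] : GL (Fin 5) F) ∈ specialLinear (Fin 5) F := by
    refine MonoidHom.mem_ker.2 (Units.ext ?_)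
    rw [GeneralLinearGroup.val_det_apply, Sub.det_dg]
    simp [Fin.prod_univ_five]
  have h2 := congrArg Units.val (Sub.d11 hD (hle h1) 0 2)
  simp only [cons_val_zero, cons_val, Units.val_pow_eq_pow_val, Units.val_neg, Units.val_one] at h2
  exact h.two_ne (by linear_combination -h2)

theorem Fd.not_sub (h : Fd F p ζ) {Δ : Subgroup (GL (Fin 5) F)} (hD : D11 Δ) {F₀ : Subfield F} (h0 : F₀ ≠ ⊤)
    {B : GL (Fin 5) F} (ha : ad ζ em ∈ subfieldSubgroup F₀ B⁻¹)
    (hS : ∀ y : GL (Fin 5) F, (y : Matrix (Fin 5) (Fin 5) F).det = 1 →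
      (∀ i k, ((B * y * B⁻¹ : GL (Fin 5) F) : Matrix (Fin 5) (Fin 5) F) i k ∈ F₀) → y ∈ Δ) : False := by
  have := h.char
  have : Fact p.Prime := ⟨h.prime⟩
  have hne : Nat.card F₀ ≠ Fintype.card F := fun c => h0 (eq_top_iff.2 fun x _ =>
    (mem_subfield_iff_pow F₀ x).2 (by rw [c, FiniteField.pow_card]))
  obtain ⟨c0, c5⟩ : Nat.card F₀ = p ∧ Fintype.card F = p ^ 5 := by
    rcases Sub.card_sub h F₀ with c | ⟨c, c'⟩
    · exact ⟨c, h.card.resolve_left fun c' => hne (c.trans c'.symm)⟩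
    · exact (hne (c.trans c'.symm)).elim
  have mem : ∀ x : F, x ∈ F₀ ↔ x ^ p = x := fun x => by rw [mem_subfield_iff_pow, c0]
  let Φ : GL (Fin 5) F →* GL (Fin 5) F := GeneralLinearGroup.map (frobenius F p)
  have hΦ : ∀ (y : GL (Fin 5) F) i k, (Φ y : Matrix (Fin 5) (Fin 5) F) i k =
      (y : Matrix (Fin 5) (Fin 5) F) i k ^ p := fun _ _ _ => rfl
  set C : GL (Fin 5) F := B⁻¹ * Φ B with hC
  have key : ∀ t : Fin 5 → Fˣ, (∀ i k, ((B * dg t * B⁻¹ : GL (Fin 5) F) : Matrix (Fin 5) (Fin 5) F) i k ∈ F₀) ↔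
      ∀ i k, (C : Matrix (Fin 5) (Fin 5) F) i k ≠ 0 → t i = t k ^ p := fun t => by
    have h1 : Φ (dg t) = dg (t ^ p) := Units.ext (Matrix.ext fun i k => by
      rw [hΦ, dg_apply, dg_apply]
      split_ifs
      · simp
      · exact zero_pow h.prime.ne_zero)
    have h2 : Φ (B * dg t * B⁻¹) = B * dg t * B⁻¹ ↔ dg t * C = C * dg (t ^ p) := by
      rw [map_mul, map_mul, map_inv, h1, hC]
      constructor
      · intro c
        calc dg t * (B⁻¹ * Φ B) = B⁻¹ * (B * dg t * B⁻¹) * Φ B := by group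
          _ = _ := by rw [← c]; group
      · intro c
        calc Φ B * dg (t ^ p) * (Φ B)⁻¹ = B * (B⁻¹ * Φ B * dg (t ^ p)) * (Φ B)⁻¹ := by group
          _ = _ := by rw [← c]; group
    constructor
    · intro c i k hik
      have h3 := congrArg (fun y : GL (Fin 5) F => (y : Matrix (Fin 5) (Fin 5) F) i k)
        (h2.1 (Units.ext (Matrix.ext fun i k => by rw [hΦ]; exact (mem _).1 (c i k))))
      simp only [dg_mul_apply, mul_dg_apply] at h3
      rw [mul_comm] at h3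
      exact Units.ext (mul_left_cancel₀ hik h3)
    · intro c i k
      rw [mem, ← hΦ, h2.2 (Units.ext (Matrix.ext fun i k => ?_))]
      rw [dg_mul_apply, mul_dg_apply]
      by_cases hik : (C : Matrix (Fin 5) (Fin 5) F) i k = 0
      · rw [hik, mul_zero, zero_mul]
      · rw [c i k hik, mul_comm]; rfl
  obtain ⟨c, hc⟩ := H98.mem_subfieldSubgroup.1 ha
  have h1 := (key fun i => c * ze ζ (em i)).1 fun i k => by
    have h2 : (dg fun i => c * ze ζ (em i) : GL (Fin 5) F) = scal (Fin 5) c * ad ζ em := by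
      rw [← dg_const, ad, ← map_mul]; rfl
    have h3 := hc i k
    rw [inv_inv, cj_coe] at h3
    rwa [h2, ← mul_assoc, ← scal_comm, mul_assoc, mul_assoc, Units.val_mul, coe_scal, smul_mul_assoc, one_mul,
      ← mul_assoc]
  have h2 : ∀ i k, (C : Matrix (Fin 5) (Fin 5) F) i k ≠ 0 → ze ζ (em i) = c ^ p / c * ze ζ (p * em k) :=
    fun i k hik => by
      have := h1 i k hik
      rw [mul_pow, h.ze_pow] at this
      rw [div_mul_eq_mul_div, ← this, mul_div_cancel_left]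
  obtain ⟨m, hm⟩ : ∃ m, c ^ p / c = ze ζ m := by
    obtain ⟨i, hi⟩ := Sub.col_ne C 0
    refine h.exists_ze ?_
    have := congrArg (· ^ 11) (h2 i 0 hi)
    simp only [mul_pow, h.ze_pow11, mul_one] at this
    exact this.symm
  have h3 : ∀ i k, (C : Matrix (Fin 5) (Fin 5) F) i k ≠ 0 → em i = m + p * em k := fun i k hik =>
    h.ze_inj (by rw [h2 i k hik, hm, h.ze_add])
  obtain ⟨n, hn, hn'⟩ := Sub.ex_n (p : I) m
    (fun c => h.ne11 ((Nat.prime_dvd_prime_iff_eq (by norm_num) h.prime).1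
      ((ZMod.natCast_eq_zero_iff p 11).1 c)).symm)
    (fun c => h0 (h.gen F₀ ((mem _).2 (by
      rw [← Units.val_pow_eq_pow_val, ← h.ze_nat, c, ze_one]))))
    fun k => (Sub.col_ne C k).imp fun i hi => h3 i k hi
  obtain ⟨μ, hμ⟩ := IsCyclic.exists_ofOrder_eq_natCard (α := Fˣ)
  rw [Nat.card_units, Nat.card_eq_fintype_card, c5] at hμ
  have h5 : ∀ x : Fˣ, x ^ p ^ 5 = x := fun x => Units.ext (by
    rw [Units.val_pow_eq_pow_val, ← c5, FiniteField.pow_card])
  have hp2 := h.prime.two_le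
  have hodd := h.odd
  obtain ⟨r, rfl⟩ : ∃ r, p = r + 1 := ⟨p - 1, by omega⟩
  have h6 : (dg fun i => (μ ^ r) ^ (r + 1) ^ (n i).val : GL (Fin 5) F) ∈ Δ := by
    refine hS _ ?_ ((key _).2 fun i k hik => ?_)
    · rw [Sub.det_dg, hn.prod_comp fun j : Fin 5 => (μ ^ r) ^ (r + 1) ^ j.val, Finset.prod_pow_eq_pow_sum,
        ← pow_mul, Units.val_eq_one, ← mul_left_inj μ, ← pow_succ, one_mul]
      conv_rhs => rw [← h5 μ]
      congr 1
      simp only [Fin.sum_univ_five]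
      change r * ((r + 1) ^ 0 + (r + 1) ^ 1 + (r + 1) ^ 2 + (r + 1) ^ 3 + (r + 1) ^ 4) + 1 = _
      ring
    · rw [hn' i k (h3 i k hik), ← pow_mul _ ((r + 1) ^ _), ← pow_succ]
      generalize n k = j
      fin_cases j
      · rfl
      · rfl
      · rfl
      · rfl
      · exact (pow_one _).trans (h5 _).symm
  obtain ⟨i, hi⟩ := hn.2 0
  obtain ⟨k, hk⟩ := hn.2 1
  have h7 := Sub.d11 hD h6 k i
  simp only [hi, hk, Fin.val_zero, Fin.val_one, pow_zero, pow_one, ← pow_mul] at h7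
  have h8 : μ ^ (r * r * 11) = 1 := by
    rw [← mul_left_inj (μ ^ (r * 11)), ← pow_add, one_mul]
    conv_rhs => rw [← h7]
    congr 1
    ring
  have hr : 0 < r := by omega
  have h9 := Nat.le_of_dvd (by positivity) (orderOf_dvd_of_pow_eq_one h8)
  rw [hμ] at h9
  have h10 : (r + 1) ^ 5 = r * r * (r ^ 3 + 5 * r ^ 2 + 10 * r + 10) + 5 * r + 1 := by ring
  have h11 : r * r * 11 ≤ r * r * (r ^ 3 + 5 * r ^ 2 + 10 * r + 10) := Nat.mul_le_mul_left _ (by omega)
  omega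

theorem Fd.not_sq (h : Fd F p ζ) (F₀ : Subfield F) (q : ℕ) : Nat.card F₀ ≠ q ^ 2 := by
  intro c
  have h1 : ∀ s, Nat.card F₀ = p ^ s → 2 ∣ s := fun s hs => by
    obtain ⟨j, -, hj⟩ := (Nat.dvd_prime_pow h.prime).1
      (show q ∣ p ^ s by rw [← hs, c]; exact dvd_pow_self _ two_ne_zero)
    refine ⟨j, Nat.pow_right_injective h.prime.two_le ?_⟩
    change p ^ s = p ^ (2 * j)
    rw [mul_comm, pow_mul, ← hj, ← c, hs]
  rcases Sub.card_sub h F₀ with h2 | ⟨h2, -⟩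
  · exact absurd (h1 1 (by rw [h2, pow_one])) (by norm_num)
  · exact absurd (h1 5 h2) (by norm_num)

end Cfsg.Agent.XP
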