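import Cfsg.Agent.XP.W1
import Cfsg.Agent.H98.Comm

set_option autoImplicit false
set_option linter.unusedSectionVars false

namespace Cfsg.Agent.XP

open Cfsg Cfsg.Geo Cfsg.Agent.H98 Cfsg.Agent.H99 Matrix
open Cfsg.Agent.N9 (pm dg On pm_apply dg_apply coe_dg pm_dg conj_pm mul_pm_apply pm_mul_apply dg_const)

variable {F : Type*} [Field F] [Fintype F] {ι : Type} [Fintype ι] [DecidableEq ι] {p : ℕ} {ζ : Fˣ}
  {w g : GL I F} {G : Subgroup (GL I F)} {e : ι → I} {v : GL ι F} {Γ K Q P : Subgroup (GL ι F)}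

theorem WH.part_mem (h : WH p ζ e v Γ) {Z : Subalgebra F (Matrix ι ι F)} (hZ : Nz Γ Z) {M : Matrix ι ι F}
    (hM : M ∈ Z) (k : I) : (of fun i l => if e i - e l = k then M i l else 0) ∈ Z := by
  have h1 : ∀ m : I, ad ζ e ^ m.val = dg fun i => ze ζ (m * e i) := fun m => by
    rw [ad, ← map_pow]
    congr 1
    ext i
    rw [Pi.pow_apply, h.ze_pow, ZMod.natCast_zmod_val]
  have h2 := Z.smul_mem (sum_mem fun (m : I) (_ : m ∈ Finset.univ) =>
    Z.smul_mem (hZ _ (pow_mem h.a m.val) M hM) (ze ζ (-(m * k)) : F)) (11 : F)⁻¹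
  convert h2 using 1
  ext i l
  rw [of_apply, Matrix.smul_apply, Matrix.sum_apply]
  have h3 : ∀ m : I, ((ze ζ (-(m * k)) : F) • (((ad ζ e ^ m.val : GL ι F) : Matrix ι ι F) * M *
      (((ad ζ e ^ m.val)⁻¹ : GL ι F) : Matrix ι ι F))) i l = (ze ζ (m * (e i - e l - k)) : F) * M i l := fun m => by
    rw [h1, ← map_inv, coe_dg, coe_dg, Matrix.smul_apply, mul_diagonal, diagonal_mul, Pi.inv_apply, ← h.ze_neg,
      show m * (e i - e l - k) = -(m * k) + (m * e i + -(m * e l)) by ring, h.ze_add, h.ze_add]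
    simp only [Units.val_mul, smul_eq_mul]
    ring
  rw [Finset.sum_congr rfl fun m _ => h3 m, ← Finset.sum_mul, h.sum_ze, smul_eq_mul]
  simp only [sub_eq_zero (a := e i - e l)]
  split_ifs
  · rw [← mul_assoc, inv_mul_cancel₀ h.eleven_ne, one_mul]
  · rw [zero_mul, mul_zero]

theorem WH.nilp (h : WH p ζ e v Γ) {N : Matrix ι ι F} {k : I} (hk : k ≠ 0)
    (hN : ∀ i l, N i l ≠ 0 → e i - e l = k) : N ^ 10 = 0 := by
  have key : ∀ n : ℕ, ∀ i l, (N ^ n) i l ≠ 0 → ∀ r : ℕ, r ≤ n → e i + r * (-k) ∈ Set.range e := fun n => by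
    induction n with
    | zero => exact fun i l _ r hr => ⟨i, by rw [Nat.le_zero.1 hr]; simp⟩
    | succ n ih =>
      intro i l hi r hr
      rw [pow_succ', mul_apply] at hi
      obtain ⟨j, -, hj⟩ := Finset.exists_ne_zero_of_sum_ne_zero hi
      rcases r with _ | r
      · exact ⟨i, by simp⟩
      · obtain ⟨x, hx⟩ := ih j l (right_ne_zero_of_mul hj) r (by omega)
        exact ⟨x, by rw [hx, ← hN i j (left_ne_zero_of_mul hj)]; push_cast; ring⟩
  ext i l
  by_contra c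
  exact h.path (neg_ne_zero.2 hk) (key 10 i l c)

theorem WH.notZ (h : WH p ζ e v Γ) : ¬ CaseZ Γ := by
  rintro ⟨Z, hc, hZ, hb, -⟩
  have dgn : ∀ M ∈ Z, ∀ i l, i ≠ l → M i l = 0 := fun M hM i l hil => by
    have hk : e i - e l ≠ 0 := fun c => hil (h.inj (sub_eq_zero.1 c))
    have := eq_zero_of_nilpotent h.irr hc hZ (h.part_mem hZ hM (e i - e l))
      ⟨10, h.nilp hk fun a b hab => by_contra fun c => hab (by rw [of_apply, if_neg c])⟩
    simpa using congrFun (congrFun this i) l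
  refine hb (eq_bot_iff.2 fun M hM => ?_)
  have hD := hZ v⁻¹ (inv_mem h.vm) M hM
  rw [inv_inv] at hD
  set D := ((v⁻¹ : GL ι F) : Matrix ι ι F) * M * v with hDd
  have e1 : M * v = v * D := by
    rw [hDd, ← mul_assoc, ← mul_assoc, ← Units.val_mul, mul_inv_cancel, Units.val_one, one_mul]
  have e2 : ∀ i k, M i i = D k k := fun i k => by
    have := congrFun (congrFun e1 i) k
    rw [mul_apply, mul_apply, Finset.sum_eq_single i (fun l _ hl => by rw [dgn M hM i l hl.symm, zero_mul])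
      (by simp), Finset.sum_eq_single k (fun l _ hl => by rw [dgn D hD l k hl, mul_zero]) (by simp)] at this
    exact mul_right_cancel₀ (h.ne i k) (this.trans (mul_comm _ _))
  have := h.nontriv
  obtain ⟨k⟩ : Nonempty ι := inferInstance
  refine Algebra.mem_bot.2 ⟨D k k, ?_⟩
  ext i l
  rw [algebraMap_matrix_apply]
  split_ifs with c
  · rw [← c, e2 i k]; rfl
  · exact (dgn M hM i l c).symm

theorem w2_dec : ∀ m : I, ∃ i : Fin 5, ∀ k : Fin 5, em k + em i ≠ m := by decide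

theorem Fd.w2_end (h : Fd F p ζ) {c : Fˣ} (hc : ∀ i : Fin 5, ∃ k : Fin 5, ze ζ (em k) * ze ζ (em i) = c) :
    False := by
  obtain ⟨k₀, h0⟩ := hc 0
  obtain ⟨i, hi⟩ := w2_dec (em k₀ + em 0)
  obtain ⟨k, hk⟩ := hc i
  exact hi k (h.ze_inj (by rw [h.ze_add, h.ze_add, hk, h0]))

theorem Fd.no_inv (h : Fd F p ζ) {y : GL (Fin 5) F} (c : y * ad ζ em * y⁻¹ * ad ζ em ∈ scalars (Fin 5) F) : False := by
  obtain ⟨c, hc⟩ := mem_scalars_iff'.1 c
  have h1 : y * dg (fun i => ze ζ (em i)) = H98.scal (Fin 5) c * (dg (fun i => ze ζ (em i))⁻¹ * y) := by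
    rw [map_inv, ← hc, ad]; group
  refine h.w2_end (c := c) fun i => ?_
  obtain ⟨k, hk⟩ := w1_row y i
  exact ⟨k, by rw [w1_supp h1 hk, Pi.inv_apply, inv_mul_cancel_right]⟩

theorem Fd.not_sim (h : Fd F p ζ) {ε : F} {f : (Fin 5 → F) → (Fin 5 → F) → F} (hf : IsSesq (RingEquiv.refl F) ε f) :
    ad ζ em ∉ similarityGroup f := by
  rintro ⟨c, hc⟩
  have h1 : ∀ i, ((ad ζ em : GL (Fin 5) F) : Matrix (Fin 5) (Fin 5) F) *ᵥ Pi.single i 1 =
      (ze ζ (em i) : F) • (Pi.single i 1 : Fin 5 → F) := fun i => by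
    rw [ad, coe_dg, diagonal_mulVec_single, ← Pi.single_smul, smul_eq_mul]
  refine h.w2_end (c := c) fun i => ?_
  obtain ⟨k, hk⟩ : ∃ k, f (Pi.single k 1) (Pi.single i 1) ≠ 0 := by
    by_contra c0
    push Not at c0
    refine (Pi.single_ne_zero_iff.2 one_ne_zero : (Pi.single i 1 : Fin 5 → F) ≠ 0)
      (hf.eq_zero_of_right fun x => ?_)
    rw [pi_eq_sum_univ' x, hf.sum_left]
    exact Finset.sum_eq_zero fun k _ => by rw [hf.smul_left, c0, mul_zero]
  have := hc (Pi.single k 1) (Pi.single i 1)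
  rw [h1, h1, hf.smul_left, hf.smul_right, RingEquiv.refl_apply, ← mul_assoc] at this
  exact ⟨k, Units.ext (mul_right_cancel₀ hk this)⟩

end Cfsg.Agent.XP
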